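import Cfsg.Statements.S1672
import Cfsg.Agent.H17.ThS
import Cfsg.Agent.H58.Mod.ThE8

set_option autoImplicit false
set_option maxRecDepth 100000

namespace Cfsg.Agent.TH

open H17 H58 H58.ThE8 H58.Sp Cfsg.Lie

/-- the change to a Chevalley basis -/
noncomputable def e8P : GL (Fin 248) (ZMod 3) := elM ThR.E mats 12

/-- the Thompson group acting on a Chevalley basis -/
noncomputable def e8φ : Spor.Th →* GL chevE8.Idx (ZMod 3) :=
  (reI chevE8 (ZMod 3)).toMonoidHom.comp ((MulAut.conj e8P⁻¹).toMonoidHom.comp ThE.ρ)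

theorem e8_mem {g : ℕ} {w : List ℕ} (hg : g < 12) (hw : ∀ x ∈ w, x < 480)
    (h : ∀ j < 4, cjAt ThR.E 62 mats tb 12 g w j = true) :
    ThP.el0 g ∈ (chevE8.group (ZMod 3)).comap e8φ := by
  have h1 := cj_sound matsOK (by decide) ThR.basis (fun x hx => (tb_ok (hw x hx)).1) h
  have h2 : e8P.1 = lmat ThR.E mats 12 := glOf_val (IsUnit.of_mul_eq_one _ inv)
  have h3 : (ThE.ρ (ThP.el0 g)).1 = lmat ThR.E mats g := by
    rw [ThE.ρ_el, lmat, mats, getW_append _ _ hg]
    exact glOf_val (ThR.rule.1.2 g)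
  refine mem_group (D := chevE8) w (fun x hx => (tb_ok (hw x hx)).2) (e8P⁻¹ * ThE.ρ (ThP.el0 g) * e8P⁻¹⁻¹) ?_
  rw [← h2, ← h3] at h1
  rw [inv_inv, mul_assoc]
  exact (Units.inv_mul_eq_iff_eq_mul e8P).2 h1.symm

theorem e8_inj : Function.Injective e8φ :=
  (reI chevE8 (ZMod 3)).injective.comp ((MulAut.conj e8P⁻¹).injective.comp ThE.card_inj.2)

theorem e8_top : (chevE8.group (ZMod 3)).comap e8φ = ⊤ :=
  have e : ∀ x < 12, ThP.el x = ThP.el0 x := fun x hx =>
    congrArg ThP.π (List.getD_append _ _ _ _ hx)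
  ThP.eq_top _ fun x hx => e x (by revert x; decide) ▸ (
    forall_cons (e8_mem (by decide) (by decide +kernel) c1) (
    forall_cons (e8_mem (by decide) (by decide +kernel) c2) (
    forall_cons (e8_mem (by decide) (by decide +kernel) c3) (
    forall_cons (e8_mem (by decide) (by decide +kernel) c4) (
    forall_cons (e8_mem (by decide) (by decide +kernel) c5) (
    forall_cons (e8_mem (by decide) (by decide +kernel) c6) (
    forall_cons (e8_mem (by decide) (by decide +kernel) c8) (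
    forall_cons (e8_mem (by decide) (by decide +kernel) c10) (
    forall_nil' _))))))))
    : ∀ x ∈ ([1, 2, 3, 4, 5, 6, 8, 10] : List ℕ), ThP.el0 x ∈ _) x hx

theorem th_in_e8 : ∃ (K : Type) (_ : Field K) (_ : Fintype K), Fintype.card K = 3 ∧
    ∃ f : Spor.Th →* Cfsg.Lie.chevE8.group K, Function.Injective f :=
  ⟨ZMod 3, inferInstance, inferInstance, rfl, e8φ.codRestrict _ fun g =>
    Subgroup.mem_comap.1 (e8_top.ge (Subgroup.mem_top g)), (MonoidHom.injective_codRestrict _ _ _).2 e8_inj⟩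

end Cfsg.Agent.TH
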